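import Cfsg.Agent.OddHalf.Small.ChevCent
import Cfsg.Agent.H610.ChevRegular
import Cfsg.Agent.ChevalleyStructure.UnipProd

/-!
# S5925, box F (helper277, for helper239)

* `exists_conj` : `g h = k g` with `h, k ∈ H`: `g = u n v`, `u ∈ C_U(k)`, `v ∈ C_U(h)`, `n ∈ N`, `n h = k n`;
* `mem_of_comm` : `C_U(h)` is generated by the root groups `X_r`, `r` positive, which `h` centralizes.
-/

set_option autoImplicit false

namespace Cfsg.Agent.H277.E83

open Cfsg Cfsg.Lie Cfsg.Agent.ChevalleyStructure Cfsg.Agent.ChevalleyStructure.Elts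
  Cfsg.Agent.ChevalleyStructure.BruhatSplit Cfsg.Agent.ChevalleyStructure.UnipProd
  Cfsg.Agent.OddHalf.Small.ChevCent

universe u

variable {D : ChevalleyDatum} {F : Type u} [Field F]

/-- the transporter of `h` to `k` -/
theorem exists_conj (hD : InList D) {h k g : GL D.Idx F} (hh : h ∈ D.diagonalSubgroup F)
    (hk : k ∈ D.diagonalSubgroup F) (hg : g ∈ D.group F) (hc : g * h = k * g) :
    ∃ u ∈ D.posUnipotent F, ∃ n ∈ D.monomialSubgroup F, ∃ v ∈ D.posUnipotent F,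
      g = u * n * v ∧ u * k = k * u ∧ n * h = k * n ∧ v * h = h * v := by
  obtain ⟨hex, huniq⟩ := Cfsg.Agent.S1100.result (F := F) D hD
  obtain ⟨b, hb, n, hn, v, hv, rfl⟩ := hex g hg
  obtain ⟨u₁, hu₁, h₁, hh₁, rfl⟩ := Cfsg.Agent.S1100.exists_mul_of_mem_borel hD hb
  have hhn : n * h⁻¹ * n⁻¹ ∈ D.diagonalSubgroup F :=
    Cfsg.Agent.S1100.conj_mem_diagonal hD hn (Subgroup.inv_mem _ hh)
  have e1 : u₁ * h₁ * n * v = ((k * u₁ * k⁻¹) * (k * h₁ * (n * h⁻¹ * n⁻¹))) * n * (h * v * h⁻¹) := by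
    calc u₁ * h₁ * n * v = k * (u₁ * h₁ * n * v) * h⁻¹ := by rw [← hc, mul_inv_cancel_right]
      _ = _ := by group
  have hU : (D.posUnipotent F : Subgroup _) ≤ D.borelSubgroup F := le_sup_left
  have hH : (D.diagonalSubgroup F : Subgroup _) ≤ D.borelSubgroup F := le_sup_right
  have hu₁' := conj_pos hD hk hu₁
  have hk' : k * h₁ * (n * h⁻¹ * n⁻¹) ∈ D.diagonalSubgroup F :=
    Subgroup.mul_mem _ (Subgroup.mul_mem _ hk hh₁) hhn
  obtain ⟨-, h4⟩ := huniq _ _ n n v (h * v * h⁻¹) hb (Subgroup.mul_mem _ (hU hu₁') (hH hk')) hn hn hv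
    (conj_Um hD hh hv) e1
  obtain ⟨h5, h6⟩ := h4 rfl
  -- `U ∩ H = 1`
  have h7 : (k * u₁ * k⁻¹)⁻¹ * u₁ = (k * h₁ * (n * h⁻¹ * n⁻¹)) * h₁⁻¹ := by
    rw [inv_mul_eq_iff_eq_mul, ← mul_assoc, ← h5, mul_inv_cancel_right]
  have h8 : (k * u₁ * k⁻¹)⁻¹ * u₁ ∈ D.posUnipotent F ⊓ D.diagonalSubgroup F :=
    ⟨Subgroup.mul_mem _ (Subgroup.inv_mem _ hu₁') hu₁, h7 ▸ Subgroup.mul_mem _ hk' (Subgroup.inv_mem _ hh₁)⟩
  rw [(Cfsg.Agent.S1036.result (F := F) D hD).2, Subgroup.mem_bot] at h8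
  have h9 : u₁ = k * u₁ * k⁻¹ := (inv_mul_eq_one.1 h8).symm
  have h10 : k * h₁ * (n * h⁻¹ * n⁻¹) = h₁ := by
    rw [h8] at h7
    have := h7.symm
    rwa [mul_inv_eq_one] at this
  refine ⟨u₁, hu₁, h₁ * n, Subgroup.mul_mem _ (diagonal_le_monomial D F hh₁) hn, v, Um_le n hv, by
    rw [mul_assoc u₁], ?_, ?_, ?_⟩
  · nth_rewrite 1 [h9]
    rw [inv_mul_cancel_right]
  · nth_rewrite 1 [← h10]
    group
  · nth_rewrite 1 [h6]
    rw [inv_mul_cancel_right]

/-- **`C_U(h)`** is generated by root groups. -/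
theorem mem_of_comm (hD : InList D) {h u : GL D.Idx F} (hh : h ∈ D.diagonalSubgroup F)
    (hu : u ∈ D.posUnipotent F) (hc : u * h = h * u) :
    u ∈ Subgroup.closure {x : GL D.Idx F | ∃ (r : ℕ) (t : F), D.IsPosRoot r ∧
      (∀ s, h * xG hD r s = xG hD r s * h) ∧ x = xG hD r t} := by
  obtain ⟨χ, hχ⟩ := Cfsg.Agent.H610.ChevRegular.exists_chi hD hh
  rw [← unipGE_eq_posUnipotent hD F le_rfl] at hu
  obtain ⟨t, ht, hut⟩ := exists_prod hD le_rfl hu
  have hconj : ∀ l : List ℕ, (∀ r ∈ l, r < D.nroots) →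
      h * wordG hD (l.map fun r => (r, t r)) * h⁻¹ = wordG hD (l.map fun r => (r, χ r * t r)) := by
    intro l
    induction l with
    | nil => intro _; simp [wordG_nil]
    | cons a l ih =>
      intro hl
      rw [List.map_cons, List.map_cons, wordG_cons, wordG_cons,
        ← ih fun r hr => hl r (List.mem_cons_of_mem _ hr), ← hχ.conj a (hl a List.mem_cons_self)]
      group
  have h1 : h * u * h⁻¹ = u := by rw [← hc, mul_inv_cancel_right]
  have h2 : wordG hD ((rootsGE D (D.nroots / 2)).map fun r => (r, χ r * t r)) =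
      wordG hD ((rootsGE D (D.nroots / 2)).map fun r => (r, t r)) := by
    have h3 := hconj (rootsGE D (D.nroots / 2)) fun r hr => (List.Ico.mem.1 hr).2
    rw [← h3, ← hut, h1]
  have h3 := prod_injective hD le_rfl (t := fun r => χ r * t r) (t' := t) h2
  rw [hut]
  unfold wordG
  apply Subgroup.list_prod_mem
  intro x hx
  obtain ⟨p, hp, rfl⟩ := List.mem_map.1 hx
  obtain ⟨r, hr, rfl⟩ := List.mem_map.1 hp
  have hr' := List.Ico.mem.1 hr
  by_cases h0 : t r = 0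
  · have h4 : xG hD r (t r) = 1 := by
      rw [h0]
      exact xG_zero hD r
    show xG hD r (t r) ∈ _
    rw [h4]
    exact one_mem _
  · apply Subgroup.subset_closure
    refine ⟨r, t r, (UnipOrd.isPosRoot_iff hD r).2 hr', ?_, rfl⟩
    have h4 : χ r = 1 := by
      have h5 : χ r * t r = t r := h3 r hr'.1 hr'.2
      exact mul_right_cancel₀ h0 (by rw [h5, one_mul])
    intro s
    have h5 := hχ.conj r hr'.2 s
    rw [h4, one_mul] at h5
    exact mul_inv_eq_iff_eq_mul.1 h5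

end Cfsg.Agent.H277.E83
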